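import Cfsg.Agent.Lib.NG.P2A

/-! docs/T11.md, section F: the case `|Y| = 4`. -/

set_option autoImplicit false
set_option linter.unusedSectionVars false

namespace Cfsg.Lib.NG

open Cfsg Subgroup Cfsg.Lib.Transfer Cfsg.Lib.BG Cfsg.Lib.Loc Cfsg.Lib.Amalgam Cfsg.Lib.PLocal Cfsg.Lib.JComp

variable {G : Type*} [Group G] [Finite G] {A B M T V : Subgroup G} {z : G}

theorem eq_or_eq_of_four (hV : Nat.card V = 4) (hz : z * z = 1) (h1 : z ≠ 1) (h2 : z ∈ A) (h3 : A ≤ V) :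
    A = zpowers z ∨ A = V := by
  have e1 := card_dvd_of_le h3
  have e2 := card_dvd_of_le (zpowers_le.2 h2)
  rw [card_zp2 hz h1] at e2
  rw [hV] at e1
  have e3 := Nat.le_of_dvd (by omega) e1
  refine (em (Nat.card A ≤ 2)).imp (fun e => (eq_of_le_of_card_le (zpowers_le.2 h2) ?_).symm)
    fun e => eq_of_le_of_card_le h3 ?_
  · rwa [card_zp2 hz h1]
  · omega

theorem Setup.geo_of_four (h : Setup T M) (hY : Nat.card 𝐘(M) = 4) : ∃ (l : Subgroup G) (z : G), Geo T l z := by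
  obtain ⟨z, hz, z1⟩ := BG.exists_ne_one h.oz_ne
  have zz := sq_of_elemAb h.ea (h.oz_le hz)
  have h1 : 𝛀(T) = zpowers z := (eq_or_eq_of_four hY zz z1 hz h.oz_le).resolve_right fun e =>
    h.not_cent_oz (e ▸ h.centY)
  have h2 : ¬ 𝐂[z] ≤ M := by rw [← cent_zpowers, ← h1]; exact h.not_cent_oz
  refine ⟨𝐘(M), z, h.hyp, h.syl, Inv.k4_of_elemAb h.ea hY, h.oz_le hz, z1, h1, h.T_le.trans h.red.normal, h.ozR,
    fun e => h2 ?_, h.normY.symm ▸ h2, fun L hL hT => ?_⟩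
  · rw [h.normY, ← norm_zp2 zz z1] at e
    rw [← norm_zp2 zz z1]
    exact (h.max.2 _ (isTwoLocal_of (ea_pgroup (ea_zp2 zz)) (by rwa [Ne, zpowers_eq_bot])) e).le
  have hc := h.hyp.isChP hL
  have hS := h.syl.of_le hT le_top
  have h3 := h.le_Y ((baum_le T).trans hT) (inf_le_left.trans hT)
    (ne_bot_mono h.oz_ne (hS.oz_le.trans (Z_le_core hc))) hc (pRed_Z hc)
  rcases eq_or_eq_of_four hY zz z1 (hS.oz_le hz) h3 with e | e
  · exact Or.inr (by rw [← norm_zp2 zz z1, ← e]; exact (pRed_Z hc).normal)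
  · exact Or.inl (e ▸ (pRed_Z hc).normal)

end Cfsg.Lib.NG
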